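import Cfsg.Agent.H19.SzBasic
import Cfsg.Agent.H16.Norm
import Cfsg.Agent.MiR.B
import Cfsg.Agent.S0252
import Cfsg.Agent.S0253
import Cfsg.Agent.S0254

/-! Small simple subgroups of `Sp₄` in characteristic two. -/

set_option autoImplicit false

namespace Cfsg.Agent.H18.S4

open Matrix H19 Polynomial
open scoped MatrixGroups

namespace PD

section
variable {K : Type*} [Field K] {G : Type*} [Group G]

local notation "M4" => Matrix (Fin 4) (Fin 4) K

/-- a faithful symplectic representation -/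
structure SRep (φ : G →* Matrix (Fin 4) (Fin 4) K) : Prop where
  inj : Function.Injective φ
  sp : ∀ g, (φ g)ᵀ * J4 K * φ g = J4 K

variable {φ : G →* Matrix (Fin 4) (Fin 4) K}

theorem SRep.adj (h : SRep φ) (g : G) : (φ g)ᵀ * J4 K = J4 K * φ g⁻¹ := by
  conv_rhs => rw [← h.sp g, mul_assoc, ← map_mul, mul_inv_cancel, map_one, mul_one]

theorem SRep.cp_inv (h : SRep φ) (g : G) : (φ g⁻¹).charpoly = (φ g).charpoly := by
  rw [← one_mul (φ g⁻¹), ← J4_mul_J4, mul_assoc, ← h.adj, charpoly_mul_comm, mul_assoc, J4_mul_J4, mul_one,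
    charpoly_transpose]

theorem cp_conj (φ : G →* M4) {g k : G} (c : IsConj g k) : (φ k).charpoly = (φ g).charpoly := by
  obtain ⟨c, rfl⟩ := isConj_iff.mp c
  rw [mul_assoc, map_mul, charpoly_mul_comm, ← map_mul, inv_mul_cancel_right]

theorem SRep.tr_inv (h : SRep φ) (g : G) : (φ g⁻¹).trace = (φ g).trace := by
  rw [trace_eq_neg_charpoly_coeff, trace_eq_neg_charpoly_coeff, h.cp_inv]

variable [CharP K 2]

theorem tr_sq (A : M4) : (A * A).trace = A.trace * A.trace := by
  have h2 : (2 : K) = 0 := CharTwo.two_eq_zero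
  simp only [trace, diag_apply, mul_apply, Fin.sum_univ_four]
  linear_combination (A 0 1 * A 1 0 + A 0 2 * A 2 0 + A 0 3 * A 3 0 + A 1 2 * A 2 1 + A 1 3 * A 3 1 + A 2 3 * A 3 2 -
    A 0 0 * A 1 1 - A 0 0 * A 2 2 - A 0 0 * A 3 3 - A 1 1 * A 2 2 - A 1 1 * A 3 3 - A 2 2 * A 3 3) * h2

theorem tr_one : (1 : M4).trace = 0 := by
  have h2 : (2 : K) = 0 := CharTwo.two_eq_zero
  rw [trace_one, Fintype.card_fin]; push_cast; linear_combination 2 * h2

theorem add_self (A : M4) : A + A = 0 := by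
  ext i j; exact CharTwo.add_self_eq_zero _

theorem SRep.det (h : SRep φ) (g : G) : (φ g).det = 1 := by
  have h2 : (2 : K) = 0 := CharTwo.two_eq_zero
  have a := congrArg Matrix.det (h.sp g)
  have b := congrArg Matrix.det (J4_mul_J4 (F := K))
  rw [det_mul, det_mul, det_transpose] at a
  rw [det_mul, det_one] at b
  refine sub_eq_zero.mp (pow_eq_zero_iff (n := 2) (by decide) |>.mp ?_)
  linear_combination (J4 K).det * a + (1 - (φ g).det ^ 2) * b + (1 - (φ g).det) * h2

/-- five exponents -/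
def ex (a b : ℕ) : Fin 5 → ℤ := ![1, -1, a, -a, b]

theorem SRep.five [IsAlgClosed K] (h : SRep φ) {p : ℕ} (hp : p.Prime) (hp2 : p ≠ 2) {x : G} (hx : x ^ p = 1) (h1 : x ≠ 1)
    {a b : ℕ} (ha : IsConj x (x ^ a)) (hb : IsConj x (x ^ b)) {N : ℤ} (hN : ∀ i j, i ≠ j → ex a b i - ex a b j ∣ N) :
    (p : ℤ) ∣ N := by
  classical
  obtain ⟨r, hr, h0⟩ : ∃ r ∈ spectrum K (φ x), ∑ i ∈ Finset.range p, r ^ i = 0 := by
    have : (0 : K) ∈ spectrum K (aeval (φ x) (∑ i ∈ Finset.range p, X ^ i : K[X])) := by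
      refine (spectrum.zero_mem_iff K).mpr fun u => h1 (h.inj ?_)
      have := mul_geom_sum (φ x) p
      rw [← map_pow, hx, map_one, sub_self] at this
      simp only [map_sum, map_pow, aeval_X] at u
      rw [map_one, ← sub_eq_zero]; exact u.mul_left_eq_zero.mp this
    rw [spectrum.map_polynomial_aeval_of_nonempty _ _ (spectrum.nonempty_of_isAlgClosed_of_finiteDimensional K _)] at this
    obtain ⟨r, hr, e⟩ := this
    exact ⟨r, hr, by simpa [eval_finset_sum] using e⟩
  have rp : r ^ p = 1 := by rw [← sub_eq_zero, ← mul_geom_sum, h0, mul_zero]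
  have r1 : r ≠ 1 := fun e => by
    simp only [e, one_pow, Finset.sum_const, Finset.card_range, nsmul_eq_mul, mul_one] at h0
    exact hp2 ((Nat.prime_dvd_prime_iff_eq Nat.prime_two hp).mp ((CharP.cast_eq_zero_iff K 2 p).mp h0)).symm
  have r0 : r ≠ 0 := fun e => by simp [e, hp.ne_zero] at rp
  have pw : ∀ {k : ℕ}, IsConj x (x ^ k) → r ^ k ∈ spectrum K (φ x) := fun c => by
    rw [mem_spectrum_iff_isRoot_charpoly, ← cp_conj φ c, ← mem_spectrum_iff_isRoot_charpoly, map_pow]
    exact spectrum.pow_mem_pow _ _ hr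
  have iv : ∀ {s : K}, s ∈ spectrum K (φ x) → s⁻¹ ∈ spectrum K (φ x) := fun hs => by
    rw [mem_spectrum_iff_isRoot_charpoly, ← h.cp_inv, ← mem_spectrum_iff_isRoot_charpoly]
    exact (spectrum.inv₀_mem_inv_iff (a := φ.toHomUnits x)).mpr hs
  have al : ∀ i, r ^ ex a b i ∈ (φ x).charpoly.roots.toFinset := fun i => by
    rw [Multiset.mem_toFinset, mem_roots (charpoly_monic _).ne_zero, ← mem_spectrum_iff_isRoot_charpoly]
    fin_cases i <;> simp [ex, hr, iv, pw ha, pw hb]
  obtain ⟨i, -, j, -, ij, e⟩ := Finset.exists_ne_map_eq_of_card_lt_of_maps_to (s := Finset.univ) (f := fun i => r ^ ex a b i)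
    (((Multiset.toFinset_card_le _).trans (card_roots' _)).trans_lt (by simp)) fun i _ => al i
  refine .trans ?_ (hN i j ij)
  haveI := Fact.mk hp
  have o : orderOf (Units.mk0 r r0) = p := orderOf_eq_prime (Units.ext (by simpa)) fun e => r1 (congrArg Units.val e)
  rw [← o, orderOf_dvd_sub_iff_zpow_eq_zpow]
  exact Units.ext (by simpa using e)

theorem SRep.tr_fpf [IsAlgClosed K] (h : SRep φ) {y : G} (hy : φ y * φ y = φ y + 1) : (φ y).trace = 0 := by
  have h2 : (2 : K) = 0 := CharTwo.two_eq_zero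
  have r : ∀ r ∈ (φ y).charpoly.roots, r * r = r + 1 := fun r hr => by
    have := spectrum.subset_polynomial_aeval (φ y) (X * X - (X + 1) : K[X])
      ⟨r, mem_spectrum_iff_isRoot_charpoly.mpr (isRoot_of_mem_roots hr), rfl⟩
    simpa [hy, sub_eq_zero] using this
  have c : (φ y).charpoly.roots.card = 4 := by
    rw [← (IsAlgClosed.splits _).natDegree_eq_card_roots]; simp
  have d := h.det y
  rw [det_eq_prod_roots_charpoly] at d
  rw [trace_eq_sum_roots_charpoly]
  obtain ⟨a, u, v, w, e⟩ := Multiset.card_eq_four.mp c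
  rw [e] at r d ⊢
  have ra := r a (by simp); have ru := r u (by simp); have rv := r v (by simp); have rw := r w (by simp)
  simp only [Multiset.insert_eq_cons, Multiset.prod_cons, Multiset.prod_singleton, Multiset.sum_cons,
    Multiset.sum_singleton] at d ⊢
  grind

omit [CharP K 2] in
theorem adj_dot {g : M4} (a : gᵀ * J4 K = J4 K * g) (x y : Fin 4 → K) :
    (g *ᵥ x) ⬝ᵥ J4 K *ᵥ y = x ⬝ᵥ J4 K *ᵥ g *ᵥ y := by
  rw [← vecMul_transpose, ← dotProduct_mulVec, mulVec_mulVec, mulVec_mulVec, a]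

theorem three {g : Fin 3 → M4} (a : ∀ i, (g i)ᵀ * J4 K = J4 K * g i) (b : ∀ i, g i * g i = g i)
    (c : ∀ i j, i ≠ j → g i * g j = 0) : ∃ i, g i = 0 := by
  by_contra! n
  have h2 : (2 : K) = 0 := CharTwo.two_eq_zero
  have : ∀ i, ∃ x y, (g i *ᵥ x) ⬝ᵥ J4 K *ᵥ g i *ᵥ y ≠ 0 := fun i => by
    by_contra! z
    refine n i ?_
    rw [← one_mul (g i), ← J4_mul_J4, mul_assoc, show J4 K * g i = 0 from ?_, mul_zero]
    ext k l
    have := z (Pi.single k 1) (Pi.single l 1)
    rw [adj_dot (a i), mulVec_mulVec, mulVec_mulVec, mul_assoc, b] at this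
    simpa using this
  choose x y hxy using this
  have o : ∀ i j, i ≠ j → ∀ u v, (g i *ᵥ u) ⬝ᵥ J4 K *ᵥ g j *ᵥ v = 0 := fun i j ij u v => by
    rw [adj_dot (a i), mulVec_mulVec v, c i j ij]; simp
  have al : ∀ v : Fin 4 → K, v ⬝ᵥ J4 K *ᵥ v = 0 := fun v => by
    simp only [J4, dotProduct, mulVec, Fin.sum_univ_four]; simp; linear_combination (v 0 * v 3 + v 1 * v 2) * h2
  have sy : ∀ u v : Fin 4 → K, u ⬝ᵥ J4 K *ᵥ v = v ⬝ᵥ J4 K *ᵥ u := fun u v => by
    simp only [J4, dotProduct, mulVec, Fin.sum_univ_four]; simp; ring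
  have li : LinearIndependent K ![g 0 *ᵥ x 0, g 0 *ᵥ y 0, g 1 *ᵥ x 1, g 1 *ᵥ y 1, g 2 *ᵥ x 2] := by
    refine Fintype.linearIndependent_iff.mpr fun s hs i => ?_
    have k := fun j v => congrArg (· ⬝ᵥ J4 K *ᵥ g j *ᵥ v) hs
    simp only [Fin.sum_univ_five, add_dotProduct, smul_dotProduct, zero_dotProduct, cons_val, smul_eq_mul] at k
    have k0 := k 0 (y 0); have k1 := k 0 (x 0); have k2 := k 1 (y 1); have k3 := k 1 (x 1); have k4 := k 2 (y 2)
    rw [sy (g 0 *ᵥ y 0)] at k1; rw [sy (g 1 *ᵥ y 1)] at k3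
    simp only [al, o 0 1 (by decide), o 1 0 (by decide), o 0 2 (by decide), o 2 0 (by decide), o 1 2 (by decide),
      o 2 1 (by decide), mul_zero, add_zero, zero_add, mul_eq_zero, hxy, or_false] at k0 k1 k2 k3 k4
    fin_cases i <;> assumption
  simpa using li.fintype_card_le_finrank

theorem four {e : Fin 4 → M4} {f : M4} (a : ∀ i, (e i)ᵀ * J4 K = J4 K * e i) (b : ∀ i, e i * e i = e i)
    (c : ∀ i j, i ≠ j → e i * e j = f) (s : ∑ i, e i = 1 + f) (n : ∀ i, e i ≠ 1) : ∃ i, e i = 0 := by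
  have ef : ∀ i, e i * f = f := fun i => by
    obtain ⟨j, ij⟩ := exists_ne i
    rw [← c i j ij.symm, ← mul_assoc, b]
  have fe : ∀ i, f * e i = f := fun i => by
    obtain ⟨j, ij⟩ := exists_ne i
    rw [← c j i ij, mul_assoc, b]
  have ff : f * f = f := by rw [← c 0 1 (by decide), mul_assoc, c 0 1 (by decide), ef, ef]
  have af : fᵀ * J4 K = J4 K * f := by
    rw [← c 0 1 (by decide), transpose_mul, mul_assoc, a, ← mul_assoc, a, mul_assoc, c 1 0 (by decide), c 0 1 (by decide)]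
  by_cases f0 : f = 0
  · obtain ⟨i, hi⟩ := three (g := fun i => e i.castSucc) (fun _ => a _) (fun _ => b _)
      fun i j ij => f0 ▸ c _ _ fun h => ij (Fin.castSucc_injective _ h)
    exact ⟨_, hi⟩
  have k : ∀ i, ∃ j, j ≠ i ∧ e j - f ≠ 0 := fun i => by
    by_contra! z
    refine n i ?_
    rw [← Finset.add_sum_erase _ _ (Finset.mem_univ i), Finset.sum_congr rfl fun j hj =>
      sub_eq_zero.mp (z j (Finset.ne_of_mem_erase hj))] at s
    simp only [Finset.sum_const, Finset.card_erase_of_mem (Finset.mem_univ i), Finset.card_univ, Fintype.card_fin,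
      Nat.add_one_sub_one, three_nsmul, add_self, add_zero] at s
    exact add_right_cancel s
  obtain ⟨j, -, hj⟩ := k 0
  obtain ⟨l, lj, hl⟩ := k j
  obtain ⟨i, hi⟩ := three (g := ![f, e j - f, e l - f])
    (fun i => by fin_cases i <;> simp [af, a, sub_mul, mul_sub])
    (fun i => by fin_cases i <;> simp [ff, ef, fe, b, sub_mul, mul_sub])
    (fun i i' h => by
      fin_cases i <;> fin_cases i' <;> simp [ff, ef, fe, c _ _ lj, c _ _ lj.symm, sub_mul, mul_sub] at h ⊢)
  fin_cases i <;> simp_all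

theorem SRep.fpf (h : SRep φ) {c d : G} (hc : c * c * c = 1) (hd : d * d * d = 1) (cd : d * c = c * d) {Y : Fin 4 → G}
    (hY : Y = ![c, d, c * d, c * (d * d)]) (n : ∀ i, Y i ≠ 1) : ∃ i, φ (Y i) * φ (Y i) = φ (Y i) + 1 := by
  have y3 : ∀ i, Y i * (Y i * Y i) = 1 := fun i => by
    have := Commute.mul_pow (cd.symm : Commute c d) 3
    have := Commute.mul_pow (Commute.mul_right (cd.symm : Commute c d) cd.symm) 3
    have := Commute.mul_pow (Commute.refl d) 3
    fin_cases i <;> simp_all [pow_succ, mul_assoc]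
  have c3 : ∀ x, φ c * (φ c * (φ c * x)) = x := fun x => by simp only [← mul_assoc, ← map_mul, hc, map_one, one_mul]
  have d3 : ∀ x, φ d * (φ d * (φ d * x)) = x := fun x => by simp only [← mul_assoc, ← map_mul, hd, map_one, one_mul]
  have dc : ∀ x, φ d * (φ c * x) = φ c * (φ d * x) := fun x => by simp only [← mul_assoc, ← map_mul, cd]
  have c3' := c3 1; have d3' := d3 1; have dc' := dc 1
  simp only [mul_one] at c3' d3' dc'
  obtain ⟨i, hi⟩ := four (e := fun i => 1 + φ (Y i) + φ (Y i) * φ (Y i))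
    (f := (1 + φ c + φ c * φ c) * (1 + φ d + φ d * φ d))
    (fun i => by
      rw [← map_mul, transpose_add, transpose_add, add_mul, add_mul, h.adj, h.adj, inv_eq_of_mul_eq_one_right (y3 i),
        inv_eq_of_mul_eq_one_left (y3 i), transpose_one, mul_add, mul_add, one_mul, mul_one, add_right_comm])
    (fun i => by
      have := congrArg φ (y3 i)
      simp only [map_mul, map_one] at this
      simp only [add_mul, mul_add, mul_assoc, this, one_mul, mul_one]
      linear_combination (norm := abel) add_self (1 + φ (Y i) + φ (Y i) * φ (Y i)))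
    (fun i j ij => by
      subst hY
      fin_cases i <;> fin_cases j <;> simp [add_mul, mul_add, mul_assoc, c3, d3, dc, c3', d3', dc'] at ij ⊢ <;> abel)
    (by
      subst hY
      rw [← add_zero (1 + _), ← add_self 1]
      simp [Fin.sum_univ_four, add_mul, mul_add, mul_assoc, c3, d3, dc, c3', d3', dc']; abel)
    fun i e => n i (h.inj (by
      have k : φ (Y i) * φ (Y i) = φ (Y i) := by linear_combination (norm := abel) e - add_self (φ (Y i))
      rw [← y3 i, map_mul, map_mul, k, k]))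
  exact ⟨i, by linear_combination (norm := abel) hi - add_self (φ (Y i) + 1)⟩

theorem tr_ty {t y : M4} (ht : t * t = 1) (hy : y * y = y + 1) (h5 : (t * y) ^ 5 = 1) :
    (t * y).trace * (t * y).trace + (t * y).trace = y.trace := by
  have h2 : (2 : K) = 0 := CharTwo.two_eq_zero
  have y3 : y * (y * y) = 1 := by rw [hy, mul_add, hy, mul_one]; linear_combination (norm := abel) add_self y
  have tt : ∀ x, t * (t * x) = x := fun x => by rw [← mul_assoc, ht, one_mul]
  have yy : ∀ x, y * (y * (y * x)) = x := fun x => by rw [← mul_assoc y y x, ← mul_assoc, y3, one_mul]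
  have u4 : (t * y) ^ 4 = y * (y * t) := by
    rw [← one_mul (y * (y * t)), ← h5, pow_succ _ 4]; simp only [mul_assoc, yy, ht, mul_one]
  have u3 : (t * y) ^ 3 = y * (y * t) * (y * (y * t)) := by rw [← u4, ← pow_add, pow_add _ 5 3, h5, one_mul]
  obtain ⟨W, hW⟩ : ∃ W, W = 1 + t * y + (t * y) ^ 2 + (t * y) ^ 3 + (t * y) ^ 4 := ⟨_, rfl⟩
  have a : t * y * W = W := by
    rw [hW]; simp only [mul_add, ← pow_succ', h5, mul_one, ← pow_two]; abel
  have b : y * W = t * W := by rw [← tt (y * W), ← mul_assoc t y, a]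
  have c : t * y * (t * W) = W + t * W := by
    rw [← b, mul_assoc, ← mul_assoc y, hy, add_mul, mul_add, one_mul, ← mul_assoc, a, b]
  have d : t * y * (t * y * (t * W)) = t * W := by rw [c, mul_add, a, c, ← add_assoc, add_self, zero_add]
  have e : (t * y) ^ 5 * (t * W) = W + t * W := by
    simp only [pow_succ', pow_zero, mul_one, mul_assoc] at d c ⊢
    rw [d, d, c]
  rw [h5, one_mul, right_eq_add] at e
  have k := congrArg (fun x => (y * x).trace) (e.symm.trans hW)
  simp only [mul_zero, trace_zero, mul_add, trace_add, mul_one, u3, u4] at k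
  rw [yy, ← mul_assoc y (y * _), yy, trace_mul_comm t (y * _), trace_mul_comm y (t * y), trace_mul_comm y (_ ^ 2)] at k
  simp only [pow_two, mul_assoc, ht, hy, mul_add, mul_one, trace_add, tr_one, trace_mul_comm t (y * t)] at k
  rw [← tr_sq, mul_assoc]
  linear_combination -k - (2 * y.trace + t.trace) * h2

open Equiv in
theorem SRep.a6 [IsAlgClosed K] {φ : alternatingGroup (Fin 6) →* M4} (h : SRep φ) (g : alternatingGroup (Fin 6)) :
    (φ g).trace * (φ g).trace = (φ g).trace := by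
  have h2 : (2 : K) = 0 := CharTwo.two_eq_zero
  have sq : ∀ x, (φ (x ^ 2)).trace = (φ x).trace * (φ x).trace := fun x => by rw [pow_two, map_mul, tr_sq]
  have s4 : ∀ x, (φ (x ^ 4)).trace = (φ x).trace ^ 4 := fun x => by rw [pow_mul x 2 2, sq, sq]; ring
  rcases (MiR.alt6_facts g).2 with a | a | a
  · have := s4 g
    rw [a, map_one, tr_one] at this
    rw [pow_eq_zero_iff (by decide) |>.mp this.symm, zero_mul]
  · have := s4 g
    rw [eq_inv_of_mul_eq_one_left (show g ^ 4 * g ^ 2 = 1 by rw [← pow_add, a]), h.tr_inv, sq] at this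
    refine sub_eq_zero.mp (pow_eq_zero_iff (n := 2) (by decide) |>.mp ?_)
    linear_combination -this + ((φ g).trace ^ 2 - (φ g).trace ^ 3) * h2
  by_cases g1 : g = 1
  · rw [g1, map_one, tr_one, zero_mul]
  obtain ⟨i, hi⟩ := h.fpf (c := ⟨swap 0 1 * swap 1 2, by simp⟩) (d := ⟨swap 3 4 * swap 4 5, by simp⟩)
    (by decide) (by decide) (by decide) rfl (by decide)
  obtain ⟨t, y, hy, t2, u5, u1⟩ : ∃ t y, φ y * φ y = φ y + 1 ∧ t * t = 1 ∧ (t * y) ^ 5 = 1 ∧ t * y ≠ 1 := by
    refine ⟨![⟨swap 0 3 * swap 1 4, by simp⟩, ⟨swap 0 3 * swap 1 4, by simp⟩, ⟨swap 0 1 * swap 2 3, by simp⟩,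
      ⟨swap 0 1 * swap 2 3, by simp⟩] i, _, hi, ?_⟩
    fin_cases i <;> decide +kernel
  have k := tr_ty (t := φ t) (by rw [← map_mul, t2, map_one]) hy (by rw [← map_mul, ← map_pow, u5, map_one])
  rw [h.tr_fpf hy, ← map_mul] at k
  haveI := Fact.mk Nat.prime_five
  obtain ⟨c, hc⟩ := H16.exists_conj_zpowers Nat.prime_five (m := 72) (by rw [nat_card_alternatingGroup]; simp; rfl) (by decide)
    (orderOf_eq_prime a g1) (S := Subgroup.zpowers (t * y)) (by rw [Nat.card_zpowers, orderOf_eq_prime u5 u1])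
  have m := hc ▸ Subgroup.mem_zpowers (c * g * c⁻¹)
  rw [mem_zpowers_iff_mem_range_orderOf, orderOf_eq_prime u5 u1] at m
  obtain ⟨n, hn, e⟩ := Finset.mem_image.mp m
  have : (φ g).trace = (φ ((t * y) ^ n)).trace := by
    rw [e, mul_assoc, map_mul, trace_mul_comm, ← map_mul, inv_mul_cancel_right]
  rw [this]
  have i3 := eq_inv_of_mul_eq_one_left (show (t * y) ^ 3 * (t * y) ^ 2 = 1 by rw [← pow_add, u5])
  have i4 := eq_inv_of_mul_eq_one_left (show (t * y) ^ 4 * (t * y) = 1 by rw [← pow_succ, u5])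
  have := Finset.mem_range.mp hn
  interval_cases n <;> simp only [pow_zero, map_one, tr_one, pow_one, i3, i4, h.tr_inv, sq] <;> grind

end

variable {F : Type*} [Field F] [CharP F 2] {P : Subgroup (GL (Fin 4) F)}

omit [CharP F 2] in
theorem exists_rep (hP : P ≤ Cfsg.Lie.Sp4 F) {G : Type*} [Group G] (e : P ≃* G) :
    ∃ φ : G →* Matrix (Fin 4) (Fin 4) (AlgebraicClosure F), SRep φ ∧
      ∀ g : P, (φ (e g)).trace = algebraMap _ _ g.1.1.trace := by
  let f := algebraMap F (AlgebraicClosure F)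
  refine ⟨(f.mapMatrix.toMonoidHom.comp ((Units.coeHom _).comp P.subtype)).comp e.symm.toMonoidHom,
    ⟨fun a b h => e.symm.injective (Subtype.ext (Units.ext (map_injective f.injective h))), fun g => ?_⟩, fun g => ?_⟩
  · have := congrArg f.mapMatrix (sp4_mat (hP (e.symm g).2))
    rw [map_mul, map_mul, show f.mapMatrix (J4 F) = J4 _ by
      ext i j; fin_cases i <;> fin_cases j <;> simp [J4]] at this
    exact this
  · simp [trace, f]

end PD

open PD

variable {F : Type*} [Field F] [CharP F 2] {P : Subgroup (GL (Fin 4) F)}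

theorem d1 (hP : P ≤ Cfsg.Lie.Sp4 F) {L : Type*} [Field L] [Fintype L] (hL : Fintype.card L = 4) :
    Nonempty (P ≃* PSL(3, L)) → False := fun ⟨e⟩ => by
  obtain ⟨φ, h, -⟩ := exists_rep hP e
  haveI : CharP L 2 := CharTwo.of_one_ne_zero_of_two_eq_zero one_ne_zero (pow_eq_zero_iff (n := 2) (by decide) |>.mp (by
    have := FiniteField.cast_card_eq_zero L; rw [hL] at this; exact_mod_cast this))
  let x : SL(3, ZMod 2) := ⟨!![0, 0, 1; 1, 0, 1; 0, 1, 0], by decide⟩
  let c : SL(3, ZMod 2) := ⟨!![1, 0, 0; 0, 0, 1; 0, 1, 1], by decide⟩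
  let ψ := (QuotientGroup.mk' (Subgroup.center SL(3, L))).comp (SpecialLinearGroup.map (ZMod.castHom (dvd_refl 2) L))
  have k : ∀ c : SL(3, ZMod 2), ∀ n, c * x = x ^ n * c → IsConj (ψ x) (ψ x ^ n) := fun c n hc =>
    map_pow ψ x n ▸ ψ.map_isConj (isConj_iff.mpr ⟨c, mul_inv_eq_iff_eq_mul.mpr hc⟩)
  refine (by decide : ¬ ((7 : ℕ) : ℤ) ∣ 60) (h.five (x := ψ x) (by decide) (by decide)
    (by rw [← map_pow, show x ^ 7 = 1 by decide, map_one]) (fun o => ?_) (k c 2 (by decide)) (k (c * c) 4 (by decide))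
    (by decide))
  obtain ⟨r, -, hr⟩ := Matrix.SpecialLinearGroup.mem_center_iff.mp ((QuotientGroup.eq_one_iff _).mp o)
  exact zero_ne_one ((congrFun₂ hr 1 0).trans (map_one (ZMod.castHom (dvd_refl 2) L)))

theorem d2 (hP : P ≤ Cfsg.Lie.Sp4 F) {K : Type*} [Field K] [Fintype K] (h3 : 3 < Fintype.card K)
    (hK : (Fintype.card K).Prime) : Nonempty (P ≃* PSL(2, K)) →
    ∃ (L : Type) (_ : Field L) (_ : Fintype L), Fintype.card L = 4 ∧ Nonempty (P ≃* PSL(2, L)) := fun ⟨e⟩ => by
  obtain ⟨φ, h, -⟩ := exists_rep hP e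
  haveI := charP_of_card_eq_prime (R := K) (p := Fintype.card K) (hp := ⟨hK⟩) rfl
  let u : K → SL(2, K) := fun t => ⟨!![1, t; 0, 1], by simp⟩
  have up : ∀ n : ℕ, u 1 ^ n = u n := fun n => by
    induction n with
    | zero => rw [pow_zero]; exact Subtype.ext (one_fin_two.trans (by simp [u]))
    | succ n ih => rw [pow_succ, ih]; exact Subtype.ext ((mul_fin_two ..).trans (by simp [u, add_comm]))
  let ψ := QuotientGroup.mk' (Subgroup.center SL(2, K))
  have k : ∀ a : ℕ, a ∣ 12 → IsConj (ψ (u 1)) (ψ (u 1) ^ (a * a)) := fun a ha => by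
    have a0 : (a : K) ≠ 0 := fun o => by
      have := ((CharP.cast_eq_zero_iff K _ a).mp o).trans ha
      have := Nat.le_of_dvd (by decide) this
      generalize Fintype.card K = p at *
      interval_cases p <;> simp_all (config := {decide := true})
    refine map_pow ψ _ _ ▸ ψ.map_isConj (isConj_iff.mpr ⟨⟨!![a, 0; 0, (a : K)⁻¹], by simp [a0]⟩, mul_inv_eq_iff_eq_mul.mpr ?_⟩)
    rw [up]; exact Subtype.ext ((mul_fin_two ..).trans (.trans (by simp [a0]) (mul_fin_two ..).symm))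
  have o : ψ (u 1) ≠ 1 := fun o => by
    obtain ⟨r, -, hr⟩ := Matrix.SpecialLinearGroup.mem_center_iff.mp ((QuotientGroup.eq_one_iff _).mp o)
    simpa [u] using congrFun₂ hr 0 1
  have p1 : ψ (u 1) ^ Fintype.card K = 1 := by
    rw [← map_pow, up, ← Nat.cast_zero.trans (CharP.cast_eq_zero K _).symm, ← up, pow_zero, map_one]
  have a := h.five hK (by omega) p1 o (k 2 (by decide)) (k 3 (by decide)) (N := 1560) (by decide)
  have b := h.five hK (by omega) p1 o (k 2 (by decide)) (k 4 (by decide)) (N := 2040) (by decide)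
  have c : Fintype.card K ∣ 120 := Nat.dvd_gcd (Int.natCast_dvd_natCast.mp a) (Int.natCast_dvd_natCast.mp b)
  have h5 : Fintype.card K = 5 := by
    have := (hK.dvd_mul (m := 2 ^ 3) (n := 3 * 5)).mp c
    rw [hK.dvd_mul] at this
    rcases this with c | c | c
    · have := Nat.le_of_dvd (by decide) (hK.dvd_of_dvd_pow c); omega
    · have := Nat.le_of_dvd (by decide) c; omega
    · exact (Nat.prime_dvd_prime_iff_eq hK Nat.prime_five).mp c
  haveI := Fintype.ofFinite (GaloisField 2 2)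
  have h4 : Fintype.card (GaloisField 2 2) = 4 := by rw [← Nat.card_eq_fintype_card, GaloisField.card 2 2 (by decide)]; rfl
  exact ⟨_, _, _, h4, ⟨(e.trans (S0253.result h5).some).trans (S0252.result h4).some.symm⟩⟩

theorem d3 (hP : P ≤ Cfsg.Lie.Sp4 F) {K : Type*} [Field K] [Fintype K] (hK : Fintype.card K = 9) :
    Nonempty (P ≃* PSL(2, K)) → ∀ g ∈ P, g.1.trace = 0 ∨ g.1.trace = 1 := fun ⟨e⟩ g hg => by
  obtain ⟨φ, h, tr⟩ := exists_rep hP (e.trans (S0254.result hK).some)
  have := h.a6 ((e.trans (S0254.result hK).some) ⟨g, hg⟩)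
  rw [tr, ← map_mul] at this
  exact IsIdempotentElem.iff_eq_zero_or_one.mp ((algebraMap F (AlgebraicClosure F)).injective this)

end Cfsg.Agent.H18.S4
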